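import Cfsg.Agent.H596.Weil.Heis
import Cfsg.Agent.H892.EP.Basic
import Cfsg.Agent.Characters.EquivOfChar
import Cfsg.Agent.CharDeep.IrrEquiv
import Cfsg.Agent.Classification.BGBlockB0

/-!
# S4933, box 2.U3.wr (helper971): invariance and the principal 2-block for the small Weil character

* `trace_tau` : `tr τ(b) = - l₀(b)`, `b ≠ 1`;
* `tr_inv` : invariance of the trace on the small weight space under operators which normalise everything;
* `delta_one` : a difference of characters with values of absolute value 1 on the powers of `g` (odd order) is 1 at `g`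
  if the group is perfect;
* `mem_B0` : the small Weil character is in the principal 2-block.
-/

set_option autoImplicit false
set_option linter.unusedSectionVars false
set_option linter.unusedVariables false

open scoped ComplexConjugate

namespace Cfsg.Agent.H971.HT

open Module Cfsg Cfsg.Agent.Characters.Ito Cfsg.Agent.Characters.Core
open Cfsg.Agent.H596.Weil

universe u

section Trace

variable {A : Type*} [CommGroup A] [Fintype A] {V : Type*} [AddCommGroup V] [Module ℂ V] [FiniteDimensional ℂ V]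
  (τ : Representation ℂ A V)

theorem trace_tau {q : ℕ} {l₀ : AddChar (Additive A) ℂ} (h0 : finrank ℂ (wsp τ l₀) + q = q ^ 2)
    (h1 : ∀ l, l ≠ l₀ → finrank ℂ (wsp τ l) + q = q ^ 2 + 1) {b : A} (hb : b ≠ 1) :
    LinearMap.trace ℂ V (τ b) = - l₀ (Additive.ofMul b) := by
  classical
  rw [← sum_mul_finrank τ b]
  have e0 : (finrank ℂ (wsp τ l₀) : ℂ) = (q : ℂ) ^ 2 - q := by
    have : ((finrank ℂ (wsp τ l₀) + q : ℕ) : ℂ) = ((q ^ 2 : ℕ) : ℂ) := by rw [h0]
    push_cast at this
    linear_combination this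
  have e1 : ∀ l, l ≠ l₀ → (finrank ℂ (wsp τ l) : ℂ) = (q : ℂ) ^ 2 - q + 1 := by
    intro l hl
    have : ((finrank ℂ (wsp τ l) + q : ℕ) : ℂ) = ((q ^ 2 + 1 : ℕ) : ℂ) := by rw [h1 l hl]
    push_cast at this
    linear_combination this
  have h2 : ∀ l : AddChar (Additive A) ℂ, l (Additive.ofMul b) * (finrank ℂ (wsp τ l) : ℂ) =
      ((q : ℂ) ^ 2 - q + 1) * l (Additive.ofMul b) - if l = l₀ then l₀ (Additive.ofMul b) else 0 := by
    intro l
    by_cases hl : l = l₀
    · rw [if_pos hl, hl, e0]; ring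
    · rw [if_neg hl, e1 l hl]; ring
  rw [Finset.sum_congr rfl fun l _ => h2 l, Finset.sum_sub_distrib, ← Finset.mul_sum,
    AddChar.sum_apply_eq_ite, if_neg (show ¬ Additive.ofMul b = 0 from hb), mul_zero, zero_sub,
    Finset.sum_ite_eq' Finset.univ l₀, if_pos (Finset.mem_univ _)]

/-- **invariance** -/
theorem tr_inv {G : Type u} [Group G] [Finite G] (hperf : commutator G = ⊤) (ω : Representation ℂ G V) {q : ℕ}
    {l₀ : AddChar (Additive A) ℂ} (h0 : finrank ℂ (wsp τ l₀) + q = q ^ 2)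
    (h1 : ∀ l, l ≠ l₀ → finrank ℂ (wsp τ l) + q = q ^ 2 + 1) (s : MulAut G) (t : A →* A)
    (ht : Function.Injective t) {Γ : Module.End ℂ V} (hΓ : IsUnit Γ)
    (hω : ∀ g, ∃ c : ℂ, Γ * ω g = c • (ω (s g) * Γ)) (hτ : ∀ a, ∃ c : ℂ, Γ * τ a = c • (τ (t a) * Γ)) (g : G) :
    LinearMap.trace ℂ V (ω (s g) * wt τ l₀) = LinearMap.trace ℂ V (ω g * wt τ l₀) := by
  classical
  obtain ⟨Γ, rfl⟩ := hΓ
  by_cases hV : Nontrivial V
  swap
  · rw [not_nontrivial_iff_subsingleton] at hV
    have : ω (s g) * wt τ l₀ = ω g * wt τ l₀ := LinearMap.ext fun x => Subsingleton.elim _ _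
    rw [this]
  have hnz : ∀ f : (Module.End ℂ V)ˣ, (f : Module.End ℂ V) ≠ 0 := fun f => f.ne_zero
  have hsm : ∀ (f : (Module.End ℂ V)ˣ) (c d : ℂ), c • (f : Module.End ℂ V) = d • (f : Module.End ℂ V) → c = d :=
    fun f c d h => smul_left_injective ℂ (hnz f) h
  choose κ hκ using hω
  choose ν hν using hτ
  -- the units
  let ωu : G → (Module.End ℂ V)ˣ := fun g => ⟨ω g, ω g⁻¹, by rw [← map_mul, mul_inv_cancel, map_one],
    by rw [← map_mul, inv_mul_cancel, map_one]⟩
  -- `κ` is a homomorphism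
  have hκmul : ∀ a b, κ (a * b) = κ a * κ b := by
    intro a b
    have e1 := hκ (a * b)
    rw [map_mul, ← mul_assoc, hκ a, smul_mul_assoc, mul_assoc, hκ b, mul_smul_comm, smul_smul, ← mul_assoc, ← map_mul,
      ← map_mul] at e1
    exact (hsm (ωu (s (a * b)) * Γ) _ _ e1).symm
  have hκone : κ 1 = 1 := by
    have e1 := hκ 1
    rw [map_one s, map_one, mul_one, one_mul] at e1
    refine (hsm Γ _ _ ?_).symm
    rw [one_smul]
    exact e1
  let κh : G →* ℂ := ⟨⟨κ, hκone⟩, hκmul⟩
  have hκ1 : ∀ g, κ g = 1 := by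
    intro g
    have h2 : g ∈ (κh.toHomUnits).ker := Abelianization.commutator_subset_ker _ (by rw [hperf]; trivial)
    exact congrArg Units.val (MonoidHom.mem_ker.1 h2)
  have hΓω : ∀ g, (Γ : Module.End ℂ V) * ω g = ω (s g) * Γ := fun g => by rw [hκ g, hκ1, one_smul]
  -- `ν`
  have htr : ∀ X Y : Module.End ℂ V, (Γ : Module.End ℂ V) * X = Y * Γ →
      LinearMap.trace ℂ V X = LinearMap.trace ℂ V Y := by
    intro X Y h
    have e1 : X = ((Γ⁻¹ : (Module.End ℂ V)ˣ) : Module.End ℂ V) * (Y * Γ) := by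
      rw [← h, ← mul_assoc, Units.inv_mul, one_mul]
    rw [e1, LinearMap.trace_mul_comm, mul_assoc, Units.mul_inv, mul_one]
  have hν1 : ∀ a, ν a * l₀ (Additive.ofMul (t a)) = l₀ (Additive.ofMul a) := by
    intro a
    by_cases ha : a = 1
    · subst ha
      have e1 := hν 1
      rw [map_one t, map_one, mul_one, one_mul] at e1
      have e2 : (1 : ℂ) = ν 1 := by
        refine hsm Γ _ _ ?_
        rw [one_smul]
        exact e1
      rw [← e2, map_one t, one_mul]
    · have hta : t a ≠ 1 := fun h => ha (ht (h.trans (map_one t).symm))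
      have e1 := htr (τ a) (ν a • τ (t a)) (by rw [hν a, smul_mul_assoc])
      rw [map_smul, trace_tau τ h0 h1 ha, trace_tau τ h0 h1 hta, smul_eq_mul, mul_neg, neg_inj] at e1
      exact e1.symm
  have hnl : ∀ a, l₀ (Additive.ofMul a⁻¹) * l₀ (Additive.ofMul a) = 1 := by
    intro a
    rw [← AddChar.map_add_eq_mul, ← ofMul_mul, inv_mul_cancel, ofMul_one, AddChar.map_zero_eq_one]
  have hwt : (Γ : Module.End ℂ V) * wt τ l₀ = wt τ l₀ * Γ := by
    rw [wt_def, mul_smul_comm, smul_mul_assoc, Finset.mul_sum, Finset.sum_mul]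
    congr 1
    refine Fintype.sum_bijective t (Finite.injective_iff_bijective.1 ht) _ _ fun a => ?_
    rw [mul_smul_comm, hν, smul_smul, smul_mul_assoc]
    congr 1
    have e1 := hnl a
    have e2 := hnl (t a)
    have e3 := hν1 a
    rw [← e3] at e1
    have e4 : l₀ (Additive.ofMul (t a)) ≠ 0 := fun h => by rw [h, mul_zero] at e2; exact zero_ne_one e2
    apply mul_right_cancel₀ e4
    rw [e2, ← e1]
    ring
  exact (htr _ _ (by rw [← mul_assoc, hΓω, mul_assoc, hwt, mul_assoc])).symm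

end Trace

section Delta

theorem det_eq_trace_one {f : Module.End ℂ (Fin 1 → ℂ)} : LinearMap.det f = LinearMap.trace ℂ _ f := by
  rw [← LinearMap.det_toMatrix' f, Matrix.det_fin_one, LinearMap.trace_eq_matrix_trace ℂ (Pi.basisFun ℂ (Fin 1)),
    Matrix.trace_fin_one]
  rfl

variable {G : Type u} [Group G] [Finite G]

theorem delta_one (hperf : commutator G = ⊤) {χp χm : G → ℂ} (hp : IsCharacter G χp) (hm : IsCharacter G χm)
    (h1 : χp 1 - χm 1 = 1) {g : G} (hg : ∀ x ∈ Subgroup.zpowers g, (χp x - χm x) * conj (χp x - χm x) = 1) :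
    χp g - χm g = 1 := by
  classical
  obtain ⟨a, ρp, rfl⟩ := hp
  obtain ⟨b, ρm, rfl⟩ := hm
  have := Fintype.ofFinite (Subgroup.zpowers g)
  set C := Subgroup.zpowers g with hC
  let rp : Representation ℂ C (Fin a → ℂ) := ρp.comp C.subtype
  let rm : Representation ℂ C (Fin b → ℂ) := ρm.comp C.subtype
  set δ : C → ℂ := fun x => ρp.character x - ρm.character x with hδ
  have hgen : IsGeneralizedCharacter C δ := ⟨rp.character, rm.character, ⟨a, rp, rfl⟩, ⟨b, rm, rfl⟩, rfl⟩
  have hnorm : classInner δ δ = 1 := by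
    rw [classInner_def, Finset.sum_congr rfl fun (x : C) _ => hg (x : G) x.2, Finset.sum_const, Finset.card_univ, nsmul_eq_mul,
      mul_one, Nat.card_eq_fintype_card]
    exact inv_mul_cancel₀ (Nat.cast_ne_zero.2 Fintype.card_ne_zero)
  have hδ1 : δ 1 = 1 := h1
  have hirr : IsIrrCharacter C δ := by
    rcases isIrr_of_generalized hgen hnorm with h | h
    · exact h
    · exfalso
      obtain ⟨n, ρ, -, hρ⟩ := h
      have h2 := congrFun hρ 1
      rw [Representation.char_one, Pi.neg_apply, hδ1] at h2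
      have h3 : ((finrank ℂ (Fin n → ℂ) : ℤ) : ℂ) = ((-1 : ℤ) : ℂ) := by push_cast; exact h2
      have h4 : (finrank ℂ (Fin n → ℂ) : ℤ) = -1 := by exact_mod_cast h3
      omega
  obtain ⟨n, ρη, -, hη⟩ := hirr
  have hn : n = 1 := by
    have h2 := congrFun hη 1
    rw [Representation.char_one, hδ1, finrank_fin_fun] at h2
    exact_mod_cast h2
  subst hn
  -- the sum
  let rs : Representation ℂ C ((Fin b → ℂ) × (Fin 1 → ℂ)) :=
    { toFun := fun x => LinearMap.prodMap (rm x) (ρη x)
      map_one' := by rw [map_one, map_one]; rfl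
      map_mul' := fun x y => by rw [map_mul, map_mul]; rfl }
  have hch : rp.character = rs.character := by
    funext x
    have h2 : rs.character x = rm.character x + ρη.character x := LinearMap.trace_prodMap' _ _
    rw [h2, hη]
    show ρp.character x = ρm.character x + (ρp.character x - ρm.character x)
    ring
  obtain ⟨e⟩ := Cfsg.Agent.Characters.EquivOfChar.nonempty_equiv_of_character_eq rp rs hch
  have hdet := Cfsg.Agent.CharDeep.IrrEquiv.det_eq_of_equiv rp rs e ⟨g, Subgroup.mem_zpowers g⟩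
  have hone : ∀ (k : ℕ) (ρ : Representation ℂ G (Fin k → ℂ)), LinearMap.det (ρ g) = 1 := by
    intro k ρ
    have h2 : g ∈ (Cfsg.Agent.CharDeep.IrrEquiv.detHom ρ).ker := Abelianization.commutator_subset_ker _ (by rw [hperf]; trivial)
    have h3 := congrArg Units.val (MonoidHom.mem_ker.1 h2)
    exact h3
  have h2 : LinearMap.det (rs ⟨g, Subgroup.mem_zpowers g⟩) = LinearMap.det (ρm g) *
      LinearMap.det (ρη ⟨g, Subgroup.mem_zpowers g⟩) := LinearMap.det_prodMap _ _
  have h3 : LinearMap.det (rp ⟨g, Subgroup.mem_zpowers g⟩) = LinearMap.det (ρp g) := rfl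
  rw [h2, h3, hone, hone, one_mul, det_eq_trace_one] at hdet
  have h4 := congrFun hη ⟨g, Subgroup.mem_zpowers g⟩
  have h5 : ρη.character ⟨g, Subgroup.mem_zpowers g⟩ = LinearMap.trace ℂ _ (ρη ⟨g, Subgroup.mem_zpowers g⟩) := rfl
  rw [h5, ← hdet] at h4
  exact h4.symm

end Delta

section Block

open Cfsg.Agent.Classification.BGBlockB0

theorem blockPart_fsum {G : Type*} [Group G] [Finite G] (B : Set (IrrCharacter G)) {ι : Type*} (J : Finset ι)
    (f : ι → G → ℂ) : blockPart B (∑ i ∈ J, f i) = ∑ i ∈ J, blockPart B (f i) := by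
  classical
  induction J using Finset.induction_on with
  | empty =>
    rw [Finset.sum_empty, Finset.sum_empty]
    have h := blockPart_sub B (0 : G → ℂ) 0
    rw [sub_zero, sub_self] at h
    exact h
  | insert a s ha ih => rw [Finset.sum_insert ha, Finset.sum_insert ha, blockPart_add, ih]

variable {A : Type*} [CommGroup A] [Fintype A] {n : ℕ} (τ : Representation ℂ A (Fin n → ℂ))
  {G : Type u} [Group G] [Finite G]

theorem mem_B0 (hperf : commutator G = ⊤) (ω : Representation ℂ G (Fin n → ℂ)) {q : ℕ} (hq : 2 ≤ q)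
    {l₀ : AddChar (Additive A) ℂ} (h0 : finrank ℂ (wsp τ l₀) + q = q ^ 2)
    (h1 : ∀ l, l ≠ l₀ → finrank ℂ (wsp τ l) + q = q ^ 2 + 1)
    (hirr : ∀ l, IsIrrCharacter G (fun g => LinearMap.trace ℂ _ (ω g * wt τ l))) (z : A) (hz : z ≠ 1) (hz2 : z * z = 1)
    (htr : ∀ g, Odd (orderOf g) → LinearMap.trace ℂ _ (ω g * τ z) * LinearMap.trace ℂ _ (ω g⁻¹ * τ z⁻¹) = 1)
    (hcomm : ∀ g a, ω g * τ a = τ a * ω g)
    {M : Ideal AlgInt} (hM : IsPModular 2 M) :
    (⟨_, hirr l₀⟩ : IrrCharacter G) ∈ principalBlock M G := by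
  classical
  have h2f : Fact (Nat.Prime 2) := ⟨Nat.prime_two⟩
  set χ : AddChar (Additive A) ℂ → G → ℂ := fun l g => LinearMap.trace ℂ _ (ω g * wt τ l) with hχ
  have hsq : ∀ l : AddChar (Additive A) ℂ, l (Additive.ofMul z) * l (Additive.ofMul z) = 1 := by
    intro l
    rw [← AddChar.map_add_eq_mul, ← ofMul_mul, hz2, ofMul_one, AddChar.map_zero_eq_one]
  have hpm : ∀ l : AddChar (Additive A) ℂ, l (Additive.ofMul z) = l₀ (Additive.ofMul z) ∨
      l (Additive.ofMul z) = - l₀ (Additive.ofMul z) := by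
    intro l
    have e1 : (l (Additive.ofMul z) - l₀ (Additive.ofMul z)) * (l (Additive.ofMul z) + l₀ (Additive.ofMul z)) = 0 := by
      linear_combination hsq l - hsq l₀
    rcases mul_eq_zero.1 e1 with h | h
    · exact Or.inl (sub_eq_zero.1 h)
    · exact Or.inr (eq_neg_of_add_eq_zero_left h)
  set Pn : Finset (AddChar (Additive A) ℂ) := Finset.univ.filter fun l => l (Additive.ofMul z) = - l₀ (Additive.ofMul z)
    with hPn
  set Mn : Finset (AddChar (Additive A) ℂ) := Finset.univ.filter fun l => ¬ l (Additive.ofMul z) = - l₀ (Additive.ofMul z)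
    with hMn
  have hchar : ∀ J : Finset (AddChar (Additive A) ℂ), IsCharacter G (∑ l ∈ J, χ l) := by
    intro J
    induction J using Finset.induction_on with
    | empty =>
      rw [Finset.sum_empty]
      exact isCharacter_zero
    | insert a s ha ih =>
      rw [Finset.sum_insert ha]
      exact isCharacter_add (isIrr_isCharacter (hirr a)) ih
  have hdec : ∀ g, (∑ l ∈ Pn, χ l) g - (∑ l ∈ Mn, χ l) g = - l₀ (Additive.ofMul z) * LinearMap.trace ℂ _ (ω g * τ z) := by
    intro g
    rw [← sum_smul_wt τ z, Finset.mul_sum, map_sum, Finset.mul_sum, Finset.sum_apply, Finset.sum_apply,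
      ← Finset.sum_filter_add_sum_filter_not Finset.univ (fun l => l (Additive.ofMul z) = - l₀ (Additive.ofMul z)),
      sub_eq_add_neg, ← Finset.sum_neg_distrib]
    congr 1
    · refine Finset.sum_congr rfl fun l hl => ?_
      have h2 := (Finset.mem_filter.1 hl).2
      rw [mul_smul_comm, map_smul, h2, smul_eq_mul]
      have h3 := hsq l₀
      show χ l g = - l₀ (Additive.ofMul z) * (- l₀ (Additive.ofMul z) * χ l g)
      linear_combination (-χ l g) * h3
    · refine Finset.sum_congr rfl fun l hl => ?_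
      have h2 := (hpm l).resolve_right (Finset.mem_filter.1 hl).2
      rw [mul_smul_comm, map_smul, h2, smul_eq_mul]
      have h3 := hsq l₀
      show - χ l g = - l₀ (Additive.ofMul z) * (l₀ (Additive.ofMul z) * χ l g)
      linear_combination (χ l g) * h3
  have hzi : z⁻¹ = z := inv_eq_of_mul_eq_one_right hz2
  have hreal : conj (l₀ (Additive.ofMul z)) = l₀ (Additive.ofMul z) := by
    have h3 : (l₀ (Additive.ofMul z) - 1) * (l₀ (Additive.ofMul z) + 1) = 0 := by linear_combination hsq l₀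
    rcases mul_eq_zero.1 h3 with h | h
    · rw [sub_eq_zero.1 h, map_one]
    · rw [eq_neg_of_add_eq_zero_left h, map_neg, map_one]
  have hnorm : ∀ g, Odd (orderOf g) → ((∑ l ∈ Pn, χ l) g - (∑ l ∈ Mn, χ l) g) *
      conj ((∑ l ∈ Pn, χ l) g - (∑ l ∈ Mn, χ l) g) = 1 := by
    intro g hg
    rw [hdec, map_mul (starRingEnd ℂ), map_neg, hreal]
    have h3 : conj (LinearMap.trace ℂ _ (ω g * τ z)) = LinearMap.trace ℂ _ (ω g⁻¹ * τ z⁻¹) := by
      let ω' : Representation ℂ (G × A) (Fin n → ℂ) := MonoidHom.noncommCoprod ω τ (fun g a => hcomm g a)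
      have := Fintype.ofFinite G
      exact (S0158.char_inv ω' (g, z)).symm
    rw [h3]
    have h4 := htr g hg
    have h5 := hsq l₀
    linear_combination (LinearMap.trace ℂ _ (ω g * τ z) * LinearMap.trace ℂ _ (ω g⁻¹ * τ z⁻¹)) * h5 + h4
  have hone : (∑ l ∈ Pn, χ l) 1 - (∑ l ∈ Mn, χ l) 1 = 1 := by
    rw [hdec, map_one, one_mul, trace_tau τ h0 h1 hz]
    linear_combination hsq l₀
  have hdelta : ∀ g, Odd (orderOf g) → (∑ l ∈ Pn, χ l) g - (∑ l ∈ Mn, χ l) g = 1 := by
    intro g hg
    refine delta_one hperf (hchar Pn) (hchar Mn) hone fun x hx => hnorm x ?_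
    obtain ⟨k, rfl⟩ := Subgroup.mem_zpowers_iff.1 hx
    exact Odd.of_dvd_nat hg (orderOf_dvd_of_pow_eq_one (by
      rw [← zpow_natCast, ← zpow_mul, mul_comm, zpow_mul, zpow_natCast, pow_orderOf_eq_one, one_zpow]))
  -- the block
  by_contra hcon
  have hmd : ∀ l, χ l 1 = finrank ℂ (wsp τ l) := by
    intro l
    show LinearMap.trace ℂ _ (ω 1 * wt τ l) = _
    rw [map_one, one_mul, trace_wt]
  set B := principalBlock M G with hB
  have hpart : ∀ l, ∃ k : ℤ, blockPart B (χ l) 1 = ((q : ℂ) ^ 2 - q + 1) * k := by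
    intro l
    by_cases hl : (⟨_, hirr l⟩ : IrrCharacter G) ∈ B
    · have hne : l ≠ l₀ := by
        rintro rfl
        exact hcon hl
      refine ⟨1, ?_⟩
      have e1 := congrFun ((blockPart_irr B ⟨_, hirr l⟩).1 hl) 1
      have e2 : blockPart B (χ l) 1 = χ l 1 := e1
      rw [e2, hmd]
      have : ((finrank ℂ (wsp τ l) + q : ℕ) : ℂ) = ((q ^ 2 + 1 : ℕ) : ℂ) := by rw [h1 l hne]
      push_cast at this
      push_cast
      linear_combination this
    · refine ⟨0, ?_⟩
      have e1 := congrFun ((blockPart_irr B ⟨_, hirr l⟩).2 hl) 1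
      have e2 : blockPart B (χ l) 1 = 0 := e1
      rw [e2]
      push_cast
      ring
  choose k hk using hpart
  have hclass : ∀ J : Finset (AddChar (Additive A) ℂ), IsClassFunction G (∑ l ∈ J, χ l) := by
    intro J g h
    rw [Finset.sum_apply, Finset.sum_apply]
    exact Finset.sum_congr rfl fun l _ => isIrr_isClassFunction (hirr l) g h
  have hprime := Blocks.Local.isPrime_of_isPModular hM
  have hzero := blockPart_odd hM (ϑ := (∑ l ∈ Pn, χ l) - (∑ l ∈ Mn, χ l) - 1) (fun g h => by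
    rw [Pi.sub_apply, Pi.sub_apply, Pi.sub_apply, Pi.sub_apply, hclass Pn g h, hclass Mn g h]
    rfl) (fun g hg => by
    rw [Pi.sub_apply, Pi.sub_apply, hdelta g hg, Pi.one_apply, sub_self]) (g := (1 : G)) (by
    rw [orderOf_one]; exact odd_one)
  have hone1 : blockPart B (1 : G → ℂ) = 1 := blockPart_of_inB (one_inB hM)
  rw [blockPart_sub, blockPart_sub, blockPart_fsum, blockPart_fsum, hone1] at hzero
  rw [Pi.sub_apply, Pi.sub_apply, Finset.sum_apply, Finset.sum_apply, Finset.sum_congr rfl fun l _ => hk l,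
    Finset.sum_congr rfl fun l _ => hk l, ← Finset.mul_sum, ← Finset.mul_sum, Pi.one_apply] at hzero
  have h3 : ((((q : ℤ) ^ 2 - q + 1) * (∑ l ∈ Pn, k l - ∑ l ∈ Mn, k l) : ℤ) : ℂ) = ((1 : ℤ) : ℂ) := by
    push_cast
    linear_combination hzero
  have h4 : ((q : ℤ) ^ 2 - q + 1) * (∑ l ∈ Pn, k l - ∑ l ∈ Mn, k l) = 1 := by exact_mod_cast h3
  have h5 : ((q : ℤ) ^ 2 - q + 1) ∣ 1 := ⟨_, h4.symm⟩
  have h6 := Int.le_of_dvd one_pos h5
  have h7 : (2 : ℤ) ≤ q := by exact_mod_cast hq
  nlinarith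

end Block

end Cfsg.Agent.H971.HT
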