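import Cfsg.Agent.H971.HT.U3Form

/-!
# S4933, box 2.U3.wr (helper971): the Weil representation of `SU₃(q)`, `q` odd, with the semi-isometries
-/

set_option autoImplicit false
set_option linter.unusedSectionVars false
set_option linter.unusedVariables false

open scoped ComplexConjugate

namespace Cfsg.Agent.H971.HT

open Module Cfsg Cfsg.Agent.Characters.Ito Cfsg.Agent.Characters.Core Matrix
open Cfsg.Agent.LieClassical.HermBasic Cfsg.Agent.LieClassical.HermSiegel
open Cfsg.Agent.ClassicalGeometry.PSUAutCount Cfsg.Agent.ClassicalGeometry.UnitAutBasic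
open Cfsg.Agent.H596.Weil

attribute [local instance] Cfsg.Agent.H596.Weil.suAction

section

variable {F : Type} [Field F] [Fintype F] {p q : ℕ} [Fact p.Prime] [Algebra (ZMod p) F]

theorem nm_smul (a : Nm F q) (x : Fin 3 → F) : a • x = ((a : Fˣ) : F) • x := rfl

/-- the action of the product -/
@[reducible] def prodAction (F : Type) [Field F] (q : ℕ) : DistribMulAction (SU 3 F q × Nm F q) (Fin 3 → F) where
  smul x v := x.2 • (x.1 • v)
  one_smul v := by
    show (1 : Nm F q) • act (1 : SU 3 F q) v = v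
    rw [one_smul, act_one]
  mul_smul x y v := by
    show (x.2 * y.2) • act (x.1 * y.1) v = x.2 • act x.1 (y.2 • act y.1 v)
    rw [mul_smul, act_mul]
    congr 1
    exact (act_smul x.1 ((y.2 : Fˣ) : F) (act y.1 v)).symm
  smul_zero x := by
    show x.2 • (x.1 • (0 : Fin 3 → F)) = 0
    rw [smul_zero, smul_zero]
  smul_add x v w := by
    show x.2 • (x.1 • (v + w)) = x.2 • (x.1 • v) + x.2 • (x.1 • w)
    rw [smul_add, smul_add]

attribute [local instance] prodAction

theorem prod_smul (x : SU 3 F q × Nm F q) (v : Fin 3 → F) : x • v = x.2 • (x.1 • v) := rfl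

theorem tf_Nm (hF : Fintype.card F = q ^ 2) (e : F) (c : Nm F q) (v w : Fin 3 → F) :
    tf p hF e (c • v) (c • w) = tf p hF e v w := tf_congr hF e (hb_Nm hF c v w)

theorem tf_su (hF : Fintype.card F = q ^ 2) (e : F) (g : SU 3 F q) (v w : Fin 3 → F) :
    tf p hF e (g • v) (g • w) = tf p hF e v w := tf_congr hF e (herm_act g v w)

theorem tf_prod (hF : Fintype.card F = q ^ 2) (e : F) (g : SU 3 F q × Nm F q) (v w : Fin 3 → F) :
    tf p hF e (g • v) (g • w) = tf p hF e v w := by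
  rw [prod_smul, prod_smul, tf_Nm, tf_su]

/-- the Weil representation -/
structure WD (F : Type) [Field F] [Fintype F] (q : ℕ) where
  n : ℕ
  ω : Representation ℂ (SU 3 F q) (Fin n → ℂ)
  τ : Representation ℂ (Nm F q) (Fin n → ℂ)
  fA : Fintype (Nm F q)
  l₀ : AddChar (Additive (Nm F q)) ℂ
  comm : ∀ g a, ω g * τ a = τ a * ω g
  dim0 : finrank ℂ (wsp τ l₀) + q = q ^ 2
  dim1 : ∀ l, l ≠ l₀ → finrank ℂ (wsp τ l) + q = q ^ 2 + 1
  irr : ∀ l, IsIrrCharacter (SU 3 F q) (fun g => LinearMap.trace ℂ _ (ω g * wt τ l))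
  tr : ∀ g a, LinearMap.trace ℂ _ (ω g * τ a) * LinearMap.trace ℂ _ (ω g⁻¹ * τ a⁻¹) =
    (Nat.card {v : Fin 3 → F // a • (g • v) = v} : ℂ)
  op : ∀ (A : GU 3 F q) (σ : F ≃+* F), ∃ Γ : Module.End ℂ (Fin n → ℂ), IsUnit Γ ∧
    (∀ g, ∃ c : ℂ, Γ * ω g = c • (ω (semiConj A σ g) * Γ)) ∧ ∀ a, ∃ c : ℂ, Γ * τ a = c • (τ (nmS q σ a) * Γ)

theorem exists_data (hF : Fintype.card F = q ^ 2) (h2 : (2 : ZMod p) ≠ 0) : Nonempty (WD F q) := by
  classical
  have hq2 := two_le hF
  have he0 := c0_ne_zero hF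
  have he := c0_pow hF
  set e : F := c0 hF with hedef
  let l : AddChar (ZMod p) ℂ := ZMod.stdAddChar
  have hl1 : ∀ y : ZMod p, y ≠ 0 → l y ≠ 1 := by
    intro y hy h1
    apply hy
    apply ZMod.injective_stdAddChar
    rw [AddChar.map_zero_eq_one]
    exact h1
  have hl : ∀ v : Fin 3 → F, v ≠ 0 → ∃ w, l (tf p hF e w v - tf p hF e v w) ≠ 1 := by
    intro v hv
    obtain ⟨w, hw⟩ := exists_tf_ne (p := p) hF he0 hv
    refine ⟨w, hl1 _ ?_⟩
    rw [tf_swap hF he w v, sub_neg_eq_add, ← two_mul]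
    exact mul_ne_zero h2 hw
  obtain ⟨n, ρ, hρ, hv, hn⟩ := exists_rho (tf p hF e) l hl
  have := hρ
  have hcV : Fintype.card (Fin 3 → F) = (q ^ 3) ^ 2 := by
    rw [Fintype.card_fun, Fintype.card_fin, hF]
    ring
  have hn3 : n = q ^ 3 := by
    rw [hcV] at hn
    exact Nat.pow_left_injective (by norm_num : 2 ≠ 0) hn
  let fA : Fintype (Nm F q) := Fintype.ofFinite _
  have hA : Fintype.card (Nm F q) = q + 1 := by rw [← Nat.card_eq_fintype_card, card_Nm hF]
  set α := Hs.aut (tf p hF e) (tf_Nm hF e) with hα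
  set β := Hs.aut (tf p hF e) (tf_su hF e) with hβ
  have hαg : ∀ a, Good ρ (α a) := fun a => good_aut hv (tf_Nm hF e) a
  have hβg : ∀ a, Good ρ (β a) := fun a => good_aut hv (tf_su hF e) a
  have hαβ : ∀ a g, α a * β g = β g * α a := by
    intro a g
    ext x
    · show (a • (g • x.v)) _ = (g • (a • x.v)) _
      rw [nm_smul, nm_smul, su_smul, su_smul, act_smul]
    · rfl
  obtain ⟨τ, hτ⟩ := exists_tau ρ α hαg
  have hτW : ∀ a, ∃ c : ℂ, τ a = c • W ρ (α a) := fun a => tau_eq ρ α hαg hτ a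
  have htrA : ∀ a : Nm F q, a ≠ 1 → LinearMap.trace ℂ _ (τ a) * LinearMap.trace ℂ _ (τ a⁻¹) = 1 := by
    intro a ha
    rw [trace_mul_trace_eq hv hn (tf_Nm hF e) hτW a]
    have h1 : Nat.card {v : Fin 3 → F // a • v = v} = 1 := by
      rw [Nat.card_eq_one_iff_unique]
      refine ⟨⟨fun x y => ?_⟩, ⟨⟨0, smul_zero a⟩⟩⟩
      have h2 : ∀ x : {v : Fin 3 → F // a • v = v}, x.1 = 0 := by
        rintro ⟨x, hx⟩
        rw [nm_smul] at hx
        have h3 : (((a : Fˣ) : F) - 1) • x = 0 := by rw [sub_smul, one_smul, hx, sub_self]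
        rcases smul_eq_zero.1 h3 with h4 | h4
        · exact absurd (Subtype.ext (Units.ext (sub_eq_zero.1 h4))) ha
        · exact h4
      exact Subtype.ext ((h2 x).trans (h2 y).symm)
    rw [h1, Nat.cast_one]
  obtain ⟨l₀, hl₀, hls⟩ := exists_dims τ hA (by rw [finrank_fin_fun]; exact hn3) htrA
  obtain ⟨m, hm⟩ : ∃ m : AddChar (Additive (Nm F q)) ℂ, m ≠ l₀ := by
    have h1 : 1 < Fintype.card (AddChar (Additive (Nm F q)) ℂ) := by
      rw [card_addChar, hA]
      omega
    exact Fintype.exists_ne_of_one_lt_card h1 l₀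
  have hlm : finrank ℂ (wsp τ m) = finrank ℂ (wsp τ l₀) + 1 := by
    have := hls m hm
    omega
  obtain ⟨ω, hω, hωτ⟩ := exists_omega ρ α hαg β hβg hαβ hτ hlm
  have hsq : q + 1 ≤ q ^ 2 := by nlinarith
  have hpos : ∀ l, 0 < finrank ℂ (wsp τ l) := by
    intro l
    by_cases h : l = l₀
    · subst h; omega
    · have := hls l h
      omega
  -- the norm of the trace of `ω`
  have : Fintype (SU 3 F q) := Fintype.ofFinite _
  have hN : classInner (fun g => LinearMap.trace ℂ _ (ω g)) (fun g => LinearMap.trace ℂ _ (ω g)) =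
      (Nat.card (Quotient (MulAction.orbitRel (SU 3 F q) (Fin 3 → F))) : ℂ) := by
    have h1 : ∀ g, LinearMap.trace ℂ _ (ω g) * conj (LinearMap.trace ℂ _ (ω g)) =
        (Fintype.card (MulAction.fixedBy (Fin 3 → F) g) : ℂ) := by
      intro g
      have h2 : conj (LinearMap.trace ℂ _ (ω g)) = LinearMap.trace ℂ _ (ω g⁻¹) := (S0158.char_inv ω g).symm
      rw [h2, trace_mul_trace_eq hv hn (tf_su hF e) hω g, ← Nat.card_eq_fintype_card]
      rfl
    have h2 := MulAction.sum_card_fixedBy_eq_card_orbits_mul_card_group (SU 3 F q) (Fin 3 → F)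
    rw [classInner_def, Finset.sum_congr rfl fun g _ => h1 g]
    have h3 : (∑ g : SU 3 F q, (Fintype.card (MulAction.fixedBy (Fin 3 → F) g) : ℂ)) =
        (Fintype.card (Quotient (MulAction.orbitRel (SU 3 F q) (Fin 3 → F))) : ℂ) * Fintype.card (SU 3 F q) := by
      exact_mod_cast h2
    rw [h3, Nat.card_eq_fintype_card, Nat.card_eq_fintype_card]
    have h4 : (Fintype.card (SU 3 F q) : ℂ) ≠ 0 := Nat.cast_ne_zero.2 Fintype.card_ne_zero
    field_simp
  -- the intertwining property of `ω`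
  have hωρ : ∀ g y, ω g * ρ y = ρ (β g y) * ω g := by
    intro g y
    obtain ⟨c, hc⟩ := hω g
    rw [hc, smul_mul_assoc, mul_smul_comm, W_mul_rho]
  have hωu : ∀ g, IsUnit (ω g) := fun g => ⟨⟨ω g, ω g⁻¹, by rw [← map_mul, mul_inv_cancel, map_one],
    by rw [← map_mul, inv_mul_cancel, map_one]⟩, rfl⟩
  have hτu : ∀ g, IsUnit (τ g) := fun g => ⟨⟨τ g, τ g⁻¹, by rw [← map_mul, mul_inv_cancel, map_one],
    by rw [← map_mul, inv_mul_cancel, map_one]⟩, rfl⟩
  refine ⟨⟨n, ω, τ, fA, l₀, hωτ, hl₀, hls, fun l => isIrr_wt τ ω hωτ hpos (by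
    rw [hA]; exact orbits_le hF (fun u v hu hv h => H644.T9.su_trans hF hu hv h)) hN l, ?_, ?_⟩⟩
  · -- the trace formula
    intro g a
    let ω' : Representation ℂ (SU 3 F q × Nm F q) (Fin n → ℂ) :=
      MonoidHom.noncommCoprod ω τ (fun g a => hωτ g a)
    have e1 : ∀ x, ω' x = ω x.1 * τ x.2 := fun x => rfl
    have h3 := trace_mul_trace_eq hv hn (tf_prod hF e) (ω := ω') (fun x => by
      refine eq_smul_W ρ (good_of_z hv fun x => rfl) fun y => ?_
      rw [e1, mul_assoc, hτ, ← mul_assoc, hωρ, mul_assoc]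
      congr 2
      show β x.1 (α x.2 y) = _
      have h4 : β x.1 (α x.2 y) = α x.2 (β x.1 y) := (DFunLike.congr_fun (hαβ x.2 x.1) y).symm
      rw [h4]
      rfl) (g, a)
    exact h3
  · -- the operators
    intro A σ
    obtain ⟨c, hc⟩ := exists_scal hF he0 he σ
    let φ : MulAut (Hs (tf p hF e)) := auS (smi A σ c) (tf_smi hF A σ hc)
    have hφg : Good ρ φ := good_of_z hv fun x => rfl
    have hφu := isUnit_W ρ hφg
    refine ⟨W ρ φ, hφu, fun g => ?_, fun a => ?_⟩
    · refine intertw ρ (ψ := φ * β g) (good_of_z hv fun x => rfl) (fun y => ?_) (fun y => ?_) ((hωu _).mul hφu)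
      · rw [mul_assoc, hωρ, ← mul_assoc, W_mul_rho, mul_assoc]
        rfl
      · rw [mul_assoc, W_mul_rho, ← mul_assoc, hωρ, mul_assoc]
        congr 2
        have h3 : ∀ v : Fin 3 → F, act (semiConj A σ g) (smi A σ c v) = smi A σ c (act g v) := by
          intro v
          rw [smi_apply, smi_apply, act_smul, act_semiConj]
        show (⟨act (semiConj A σ g) (smi A σ c y.v), y.z⟩ : Hs (tf p hF e)) = ⟨smi A σ c (act g y.v), y.z⟩
        rw [h3]
    · refine intertw ρ (ψ := φ * α a) (good_of_z hv fun x => rfl) (fun y => ?_) (fun y => ?_) ((hτu _).mul hφu)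
      · rw [mul_assoc, hτ, ← mul_assoc, W_mul_rho, mul_assoc]
        rfl
      · rw [mul_assoc, W_mul_rho, ← mul_assoc, hτ, mul_assoc]
        congr 2
        have h3 : ∀ v : Fin 3 → F, σ ((a : Fˣ) : F) • (smi A σ c v) = smi A σ c (((a : Fˣ) : F) • v) := by
          intro v
          rw [smi_apply, smi_apply, smul_comm, ← mulVec_smul]
          congr 2
          funext i
          exact (map_mul σ _ _).symm
        show (⟨σ ((a : Fˣ) : F) • (smi A σ c y.v), y.z⟩ : Hs (tf p hF e)) = ⟨smi A σ c (((a : Fˣ) : F) • y.v), y.z⟩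
        rw [h3]

end

end Cfsg.Agent.H971.HT
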