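import Cfsg.Agent.H596.Weil.Psu
import Cfsg.Agent.ClassicalGeometry.PSUAutMain

/-!
# S4933, box 2.U3.wr (helper971): the Weil representation of `SU₃(q)` with the trace form

* `tf` : the alternating form `Tr (e * h v w)` with values in `ZMod p`, invariant under `SU₃(q)`, the norm one scalars
  and (up to a scalar) all semi-isometries;
* `exists_data` : the Weil representation with the operators of all semi-isometries.
-/

set_option autoImplicit false
set_option linter.unusedSectionVars false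

open scoped ComplexConjugate

namespace Cfsg.Agent.H971.HT

open Module Cfsg Cfsg.Agent.Characters.Ito Cfsg.Agent.Characters.Core Matrix
open Cfsg.Agent.LieClassical.HermBasic Cfsg.Agent.LieClassical.HermSiegel
open Cfsg.Agent.ClassicalGeometry.PSUAutCount Cfsg.Agent.ClassicalGeometry.UnitAutBasic
open Cfsg.Agent.H596.Weil

universe u

section Aut

variable {V Z : Type u} [AddCommGroup V] [AddCommGroup Z] {h : V →+ V →+ Z}

/-- the automorphism of the Heisenberg group of an additive isometry -/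
def auS (s : V ≃+ V) (hs : ∀ v w, h (s v) (s w) = h v w) : MulAut (Hs h) where
  toFun x := ⟨s x.v, x.z⟩
  invFun x := ⟨s.symm x.v, x.z⟩
  left_inv x := by ext <;> simp
  right_inv x := by ext <;> simp
  map_mul' x y := by
    ext
    · simp
    · simp [hs]

theorem auS_apply (s : V ≃+ V) (hs : ∀ v w, h (s v) (s w) = h v w) (x : Hs h) : auS s hs x = ⟨s x.v, x.z⟩ := rfl

variable [Fintype V] [Fintype Z]

theorem good_of_z {n : ℕ} {ρ : Representation ℂ (Hs h) (Fin n → ℂ)} (hv : ∀ x : Hs h, x.v ≠ 0 → ρ.character x = 0)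
    {φ : MulAut (Hs h)} (hφ : ∀ x, (φ x).z = x.z) : Good ρ φ := by
  intro x hx
  apply hv
  intro h0
  apply hx
  have h1 : (φ x).v + -x.v = 0 := h0
  ext
  · exact (eq_neg_of_add_eq_zero_left h1).trans (neg_neg _)
  · exact hφ x

/-- two operators for the same automorphism -/
theorem intertw {n : ℕ} (ρ : Representation ℂ (Hs h) (Fin n → ℂ)) [ρ.IsIrreducible] {ψ : MulAut (Hs h)} (hψ : Good ρ ψ)
    {X Y : Module.End ℂ (Fin n → ℂ)} (hX : ∀ y, X * ρ y = ρ (ψ y) * X) (hY : ∀ y, Y * ρ y = ρ (ψ y) * Y)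
    (hYu : IsUnit Y) : ∃ c : ℂ, X = c • Y := by
  obtain ⟨c, hc⟩ := eq_smul_W ρ hψ hX
  obtain ⟨d, hd⟩ := eq_smul_W ρ hψ hY
  have hd0 : d ≠ 0 := by
    rintro rfl
    rw [zero_smul] at hd
    rw [hd] at hYu
    have : Nontrivial (Fin n → ℂ) := finrank_pos_iff.1 (finrank_pos_of_irreducible ρ)
    exact not_isUnit_zero hYu
  refine ⟨c * d⁻¹, ?_⟩
  rw [hd, smul_smul, mul_assoc, inv_mul_cancel₀ hd0, mul_one, hc]

end Aut

section Tr

variable {F : Type} [Field F] [Fintype F] {p q : ℕ} [Fact p.Prime] [Algebra (ZMod p) F]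

theorem tr_map (ρ : F ≃+* F) (x : F) : Algebra.trace (ZMod p) F (ρ x) = Algebra.trace (ZMod p) F x := by
  let e : F ≃ₐ[ZMod p] F := AlgEquiv.ofRingEquiv (f := ρ) (fun r => DFunLike.congr_fun
    (RingHom.ext_zmod ((ρ : F →+* F).comp (algebraMap (ZMod p) F)) (algebraMap (ZMod p) F)) r)
  exact Algebra.trace_eq_of_algEquiv e x

/-- the trace form -/
noncomputable def tf (p : ℕ) [Algebra (ZMod p) F] (hF : Fintype.card F = q ^ 2) (e : F) :
    (Fin 3 → F) →+ (Fin 3 → F) →+ ZMod p where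
  toFun v :=
    { toFun := fun w => Algebra.trace (ZMod p) F (e * hermForm 3 F q v w)
      map_zero' := by rw [herm_zero_right hF, mul_zero, map_zero]
      map_add' := fun w w' => by rw [herm_add_right hF, mul_add, map_add] }
  map_zero' := AddMonoidHom.ext fun w => by
    show Algebra.trace (ZMod p) F (e * hermForm 3 F q 0 w) = 0
    rw [herm_zero_left, mul_zero, map_zero]
  map_add' v v' := AddMonoidHom.ext fun w => by
    show Algebra.trace (ZMod p) F (e * hermForm 3 F q (v + v') w) =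
      Algebra.trace (ZMod p) F (e * hermForm 3 F q v w) + Algebra.trace (ZMod p) F (e * hermForm 3 F q v' w)
    rw [herm_add_left, mul_add, map_add]

theorem tf_apply (hF : Fintype.card F = q ^ 2) (e : F) (v w : Fin 3 → F) :
    tf p hF e v w = Algebra.trace (ZMod p) F (e * hermForm 3 F q v w) := rfl

theorem tf_congr (hF : Fintype.card F = q ^ 2) (e : F) {v w v' w' : Fin 3 → F}
    (h : hermForm 3 F q v w = hermForm 3 F q v' w') : tf p hF e v w = tf p hF e v' w' := by
  rw [tf_apply, tf_apply, h]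

theorem tf_swap (hF : Fintype.card F = q ^ 2) {e : F} (he : e ^ q = -e) (v w : Fin 3 → F) :
    tf p hF e w v = - tf p hF e v w := by
  rw [tf_apply, tf_apply, ← tr_map (Cfsg.Agent.LieClassical.HermBasic.conj hF) (e * hermForm 3 F q v w), Cfsg.Agent.LieClassical.HermBasic.conj_apply, mul_pow, he,
    ← herm_swap hF, neg_mul, map_neg, neg_neg]

theorem exists_tf_ne (hF : Fintype.card F = q ^ 2) {e : F} (he : e ≠ 0) {v : Fin 3 → F} (hv : v ≠ 0) :
    ∃ w, tf p hF e w v ≠ 0 := by
  obtain ⟨w, hw⟩ := exists_herm_ne_zero hF hv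
  have hsw : hermForm 3 F q w v ≠ 0 := by
    intro h0
    exact hw (herm_eq_zero_swap hF h0)
  obtain ⟨y, hy⟩ : ∃ y : F, Algebra.trace (ZMod p) F y ≠ 0 := by
    have h1 : Algebra.trace (ZMod p) F ≠ 0 := Algebra.trace_ne_zero _ _
    by_contra hcon
    push Not at hcon
    exact h1 (LinearMap.ext hcon)
  refine ⟨(y / (e * hermForm 3 F q w v)) • w, ?_⟩
  rw [tf_apply, herm_smul_left]
  have h1 : e * (y / (e * hermForm 3 F q w v) * hermForm 3 F q w v) = y := by
    field_simp
  rw [h1]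
  exact hy

theorem map_nm {σ : F ≃+* F} (a : Nm F q) : Units.map (σ : F →* F) (a : Fˣ) ∈ Nm F q := by
  have h := a.2
  rw [MonoidHom.mem_ker, powMonoidHom_apply] at h ⊢
  rw [← map_pow, h, map_one]

/-- a field automorphism on the norm one scalars -/
def nmS (q : ℕ) (σ : F ≃+* F) : Nm F q →* Nm F q where
  toFun a := ⟨Units.map (σ : F →* F) (a : Fˣ), map_nm a⟩
  map_one' := Subtype.ext (map_one _)
  map_mul' a b := Subtype.ext (map_mul _ _ _)

theorem nmS_coe (σ : F ≃+* F) (a : Nm F q) : (((nmS q σ a : Nm F q) : Fˣ) : F) = σ ((a : Fˣ) : F) := rfl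

theorem nmS_inj (σ : F ≃+* F) : Function.Injective (nmS q σ) := by
  intro a b h
  apply Subtype.ext
  apply Units.ext
  have h1 := congrArg (fun x : Nm F q => ((x : Fˣ) : F)) h
  exact σ.injective h1

/-- the semi-isometry with a scalar -/
noncomputable def smi (A : GU 3 F q) (σ : F ≃+* F) (c : Fˣ) : (Fin 3 → F) ≃+ (Fin 3 → F) where
  toFun v := (c : F) • (gm A *ᵥ fun i => σ (v i))
  invFun v := fun i => σ.symm ((gm A⁻¹ *ᵥ (((c⁻¹ : Fˣ) : F) • v)) i)
  left_inv v := by
    funext i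
    dsimp only
    rw [smul_smul, Units.inv_mul, one_smul, gm_inv_mulVec, RingEquiv.symm_apply_apply]
  right_inv v := by
    dsimp only
    have h : (fun i => σ (σ.symm ((gm A⁻¹ *ᵥ (((c⁻¹ : Fˣ) : F) • v)) i))) = gm A⁻¹ *ᵥ (((c⁻¹ : Fˣ) : F) • v) := by
      funext i
      rw [RingEquiv.apply_symm_apply]
    rw [h, gm_mulVec_inv, smul_smul, Units.mul_inv, one_smul]
  map_add' v w := by
    rw [← smul_add, ← mulVec_add]
    congr 2
    funext i
    exact map_add σ _ _

theorem smi_apply (A : GU 3 F q) (σ : F ≃+* F) (c : Fˣ) (v : Fin 3 → F) :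
    smi A σ c v = (c : F) • (gm A *ᵥ fun i => σ (v i)) := rfl

/-- the scalar `c` can be chosen -/
theorem exists_scal (hF : Fintype.card F = q ^ 2) {e : F} (he0 : e ≠ 0) (he : e ^ q = -e) (σ : F ≃+* F) :
    ∃ c : Fˣ, e * ((c : F) * (c : F) ^ q) = σ e := by
  have hs0 : σ e ≠ 0 := (map_ne_zero σ).2 he0
  have hs : (σ e) ^ q = - σ e := by rw [← map_pow, he, map_neg]
  obtain ⟨c, hc0, hc⟩ := exists_norm_eq_ne hF (c := σ e / e) (by rw [div_pow, hs, he, neg_div_neg_eq])
    (div_ne_zero hs0 he0)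
  refine ⟨Units.mk0 c hc0, ?_⟩
  rw [Units.val_mk0, hc, mul_div_cancel₀ _ he0]

theorem tf_smi (hF : Fintype.card F = q ^ 2) {e : F} (A : GU 3 F q) (σ : F ≃+* F) {c : Fˣ}
    (hc : e * ((c : F) * (c : F) ^ q) = σ e) (v w : Fin 3 → F) :
    tf p hF e (smi A σ c v) (smi A σ c w) = tf p hF e v w := by
  rw [tf_apply, tf_apply, smi_apply, smi_apply, herm_smul_left, herm_smul_right, herm_semi]
  have h1 : e * ((c : F) * ((c : F) ^ q * σ (hermForm 3 F q v w))) = σ (e * hermForm 3 F q v w) := by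
    rw [map_mul, ← hc]
    ring
  rw [h1, tr_map]

end Tr

end Cfsg.Agent.H971.HT
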