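import Cfsg.Agent.H971.HT.U3Data
import Cfsg.Agent.H971.HT.U3Blk
import Cfsg.Agent.Blocks.PrincipalKernel
import Cfsg.Agent.Blocks.Deflate
import Cfsg.Agent.S0941

/-!
# S4933, box 2.U3.wr (helper971): the small Weil character of `PSU₃(q)`, `q` odd

`exists_psi`: an irreducible character of `PSU 3 F q` of degree `q ^ 2 - q`, invariant under all automorphisms, in the
principal 2-block.
-/

set_option autoImplicit false
set_option linter.unusedSectionVars false
set_option linter.unusedVariables false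

open scoped ComplexConjugate

namespace Cfsg.Agent.H971.HT

open Module Cfsg Cfsg.Agent.Characters.Ito Cfsg.Agent.Characters.Core Matrix
open Cfsg.Agent.LieClassical.HermBasic Cfsg.Agent.LieClassical.HermSiegel
open Cfsg.Agent.ClassicalGeometry.PSUAutCount Cfsg.Agent.ClassicalGeometry.UnitAutBasic
open Cfsg.Agent.H596.Weil

attribute [local instance] Cfsg.Agent.H596.Weil.suAction

section SU

variable {F : Type} [Field F] [Fintype F] {q : ℕ}

theorem exists_chi (hF : Fintype.card F = q ^ 2) (hq : Odd q) (hq2 : q ≠ 2) :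
    ∃ χ : IrrCharacter (SU 3 F q), (∃ d : ℕ, (χ : SU 3 F q → ℂ) 1 = d ∧ d + q = q ^ 2) ∧
      (∀ (A : GU 3 F q) (σ : F ≃+* F) (g : SU 3 F q), (χ : SU 3 F q → ℂ) (semiConj A σ g) = (χ : SU 3 F q → ℂ) g) ∧
      ∀ M : Ideal AlgInt, IsPModular 2 M → χ ∈ principalBlock M (SU 3 F q) := by
  classical
  obtain ⟨p, hchar⟩ := CharP.exists F
  have hpp : p.Prime := CharP.char_is_prime F p
  have : Fact p.Prime := ⟨hpp⟩
  let _ : Algebra (ZMod p) F := ZMod.algebra F p
  obtain ⟨m, -, hm⟩ := FiniteField.card F p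
  have hp2 : p ≠ 2 := by
    rintro rfl
    have h1 : Odd (Fintype.card F) := by rw [hF]; exact hq.pow
    rw [hm, Nat.odd_pow_iff m.pos.ne'] at h1
    exact absurd h1 (by decide)
  have h2F : (2 : F) ≠ 0 := by
    intro h
    have h1 : ((2 : ℕ) : F) = 0 := by exact_mod_cast h
    rw [CharP.cast_eq_zero_iff F p] at h1
    exact hp2 ((Nat.prime_dvd_prime_iff_eq hpp Nat.prime_two).1 h1)
  have h2 : (2 : ZMod p) ≠ 0 := by
    intro h
    have h1 : ((2 : ℕ) : ZMod p) = 0 := by exact_mod_cast h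
    rw [ZMod.natCast_eq_zero_iff] at h1
    exact hp2 ((Nat.prime_dvd_prime_iff_eq hpp Nat.prime_two).1 h1)
  have hqq := two_le hF
  have hperf := Cfsg.Agent.LieClassical.HermPerfect.commutator_SU_eq_top (n := 3) hF le_rfl (fun h => hq2 h.2)
  obtain ⟨n, ω, τ, fA, l₀, comm, dim0, dim1, irr, tr, op⟩ := (exists_data (p := p) hF h2).some
  refine ⟨⟨_, irr l₀⟩, ⟨finrank ℂ (wsp τ l₀), ?_, dim0⟩, ?_, ?_⟩
  · show LinearMap.trace ℂ _ (ω 1 * wt τ l₀) = _
    rw [map_one, one_mul, trace_wt]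
  · intro A σ g
    obtain ⟨Γ, hΓ, h1, h3⟩ := op A σ
    exact tr_inv τ hperf ω dim0 dim1 (semiConj A σ) (nmS q σ) (nmS_inj σ) hΓ h1 h3 g
  · intro M hM
    have hz0 : (-1 : Fˣ) ∈ Nm F q := by
      rw [MonoidHom.mem_ker, powMonoidHom_apply]
      exact hq.add_one.neg_one_pow
    refine mem_B0 τ hperf ω hqq dim0 dim1 irr ⟨-1, hz0⟩ ?_ ?_ ?_ comm hM
    · intro h
      have h1 : (-1 : Fˣ) = 1 := congrArg Subtype.val h
      have h3 : (-1 : F) = 1 := congrArg Units.val h1
      apply h2F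
      linear_combination -h3
    · apply Subtype.ext
      show (-1 : Fˣ) * (-1) = 1
      rw [neg_mul_neg, one_mul]
    · intro g hg
      rw [tr]
      have h1 : Nat.card {v : Fin 3 → F // (⟨-1, hz0⟩ : Nm F q) • (g • v) = v} = 1 := by
        have hsm : ∀ v : Fin 3 → F, (⟨-1, hz0⟩ : Nm F q) • (g • v) = - act g v := by
          intro v
          show (-1 : F) • act g v = - act g v
          rw [neg_smul, one_smul]
        rw [Nat.card_eq_one_iff_unique]
        refine ⟨⟨fun x y => ?_⟩, ⟨⟨0, ?_⟩⟩⟩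
        · have h3 : ∀ x : {v : Fin 3 → F // (⟨-1, hz0⟩ : Nm F q) • (g • v) = v}, x.1 = 0 := by
            rintro ⟨x, hx⟩
            rw [hsm] at hx
            have h4 : act g x = (-1 : F) • x := by
              rw [neg_smul, one_smul]
              exact neg_eq_iff_eq_neg.1 hx
            have h5 : ∀ k : ℕ, act (g ^ k) x = (-1 : F) ^ k • x := by
              intro k
              induction k with
              | zero => rw [pow_zero, pow_zero, one_smul, act_one]
              | succ k ih => rw [pow_succ, act_mul, h4, act_smul, ih, smul_smul, pow_succ']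
            have h6 := h5 (orderOf g)
            rw [pow_orderOf_eq_one, act_one, hg.neg_one_pow, neg_smul, one_smul] at h6
            have h7 : (2 : F) • x = 0 := by
              rw [two_smul]
              nth_rewrite 1 [h6]
              exact neg_add_cancel x
            exact (smul_eq_zero.1 h7).resolve_left h2F
          exact Subtype.ext ((h3 x).trans (h3 y).symm)
        · rw [hsm, act_zero, neg_zero]
      rw [h1, Nat.cast_one]

end SU

section Quot

variable {G : Type*} [Group G] [Finite G]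

/-- the principal block of the quotient by a central subgroup of order prime to `p` -/
theorem mem_of_infl {p : ℕ} [hp : Fact p.Prime] {M : Ideal AlgInt} (hM : IsPModular p M) (Z : Subgroup G) [Z.Normal]
    (hZ : Z ≤ Subgroup.center G) (hpZ : ¬ p ∣ Nat.card Z) {χ : IrrCharacter G} {χ' : IrrCharacter (G ⧸ Z)}
    (h : (χ : G → ℂ) = (χ' : G ⧸ Z → ℂ) ∘ QuotientGroup.mk) (hχ : χ ∈ principalBlock M G) :
    χ' ∈ principalBlock M (G ⧸ Z) := by
  have hprime := Blocks.Local.isPrime_of_isPModular hM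
  intro x
  obtain ⟨g, rfl⟩ := QuotientGroup.mk_surjective x
  have h1 := hχ g
  have e1 := S0941.centralChar_inflate Z (χ' : G ⧸ Z → ℂ) g
  have e2 := S0941.centralChar_inflate Z (fun _ : G ⧸ Z => (1 : ℂ)) g
  rw [← h] at e1
  have e3 : ((fun _ : G ⧸ Z => (1 : ℂ)) ∘ (QuotientGroup.mk : G → G ⧸ Z)) = fun _ : G => (1 : ℂ) := rfl
  rw [e3] at e2
  set H := (Subgroup.centralizer ({QuotientGroup.mk g} : Set (G ⧸ Z))).comap (QuotientGroup.mk' Z) with hH
  set c := (Subgroup.centralizer ({g} : Set G)).relIndex H with hc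
  have hcp : ¬ p ∣ c := by
    -- the commutator with `g` is a homomorphism `H → Z`
    have hmem : ∀ y : H, (y : G) * g * (y : G)⁻¹ * g⁻¹ ∈ Z := by
      intro y
      have h3 : QuotientGroup.mk' Z (y : G) ∈ Subgroup.centralizer ({QuotientGroup.mk g} : Set (G ⧸ Z)) := y.2
      rw [Subgroup.mem_centralizer_singleton_iff] at h3
      rw [← QuotientGroup.eq_one_iff]
      have h4 : (QuotientGroup.mk (y : G) : G ⧸ Z) * QuotientGroup.mk g = QuotientGroup.mk g * QuotientGroup.mk (y : G) := h3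
      rw [QuotientGroup.mk_mul, QuotientGroup.mk_mul, QuotientGroup.mk_mul, h4, QuotientGroup.mk_inv,
        QuotientGroup.mk_inv, mul_inv_cancel_right, mul_inv_cancel]
    let f : H →* Z :=
      { toFun := fun y => ⟨_, hmem y⟩
        map_one' := Subtype.ext (by simp)
        map_mul' := fun y w => Subtype.ext (by
          have h5 := Subgroup.mem_center_iff.1 (hZ (hmem w)) (y : G)
          show (y : G) * w * g * ((y : G) * w)⁻¹ * g⁻¹ = (y * g * (y : G)⁻¹ * g⁻¹) * (w * g * (w : G)⁻¹ * g⁻¹)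
          calc (y : G) * w * g * ((y : G) * w)⁻¹ * g⁻¹
              = ((y : G) * ((w : G) * g * (w : G)⁻¹ * g⁻¹)) * (g * (y : G)⁻¹ * g⁻¹) := by group
            _ = (((w : G) * g * (w : G)⁻¹ * g⁻¹) * y) * (g * (y : G)⁻¹ * g⁻¹) := by rw [h5]
            _ = ((w : G) * g * (w : G)⁻¹ * g⁻¹) * (y * g * (y : G)⁻¹ * g⁻¹) := by group
            _ = (y * g * (y : G)⁻¹ * g⁻¹) * (w * g * (w : G)⁻¹ * g⁻¹) :=
              (Subgroup.mem_center_iff.1 (hZ (hmem w)) _).symm) }
    have hk : f.ker = (Subgroup.centralizer ({g} : Set G)).subgroupOf H := by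
      ext y
      rw [MonoidHom.mem_ker, Subgroup.mem_subgroupOf, Subgroup.mem_centralizer_singleton_iff]
      constructor
      · intro h5
        have h6 : (y : G) * g * (y : G)⁻¹ * g⁻¹ = 1 := congrArg Subtype.val h5
        rw [mul_inv_eq_one, mul_inv_eq_iff_eq_mul] at h6
        exact h6
      · intro h5
        apply Subtype.ext
        show (y : G) * g * (y : G)⁻¹ * g⁻¹ = 1
        rw [mul_inv_eq_one, mul_inv_eq_iff_eq_mul]
        exact h5
    have h6 : c = Nat.card f.range := by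
      rw [hc, Subgroup.relIndex, ← hk, Subgroup.index_ker]
    rw [h6]
    exact fun h7 => hpZ (h7.trans (Subgroup.card_subgroup_dvd_card _))
  have hc0 : (c : ℂ) ≠ 0 := by
    intro h0
    have : c = 0 := by exact_mod_cast h0
    exact hcp (this ▸ dvd_zero p)
  have h3 : MemLocalIdeal M (centralChar (fun _ : G => (1 : ℂ)) g - centralChar (χ : G → ℂ) g) := h1
  rw [e1, e2, ← mul_sub] at h3
  have h4 := Blocks.LocalRing.memLocalIdeal_mul_right hM h3 (Blocks.Local.memLocalRing_inv_natCast hM hcp)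
  rw [mul_comm (c : ℂ), mul_assoc, mul_inv_cancel₀ hc0, mul_one] at h4
  exact h4

end Quot

section PSU

variable {F : Type} [Field F] [Fintype F] {q : ℕ}

theorem not_two_dvd_center (hF : Fintype.card F = q ^ 2) : ¬ 2 ∣ Nat.card (Subgroup.center (SU 3 F q)) := by
  intro h
  obtain ⟨z, hz⟩ := exists_prime_orderOf_dvd_card' 2 h
  obtain ⟨c, hcn, hcq, hzc⟩ := (Cfsg.Agent.LieClassical.SUBasic.mem_center_SU_iff hF le_rfl (z : SU 3 F q)).1 z.2
  have h4 : ∀ (k : ℕ) (v : Fin 3 → F), act ((Cfsg.Agent.LieClassical.SUBasic.suScalar q c hcn hcq) ^ k) v =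
      c ^ k • v := by
    intro k
    induction k with
    | zero => intro v; rw [pow_zero, pow_zero, one_smul, act_one]
    | succ k ih =>
      intro v
      rw [pow_succ, act_mul, ih, pow_succ, mul_smul]
      congr 1
      rw [act_def, mat_def, Cfsg.Agent.LieClassical.SUBasic.coe_suScalar]
      funext i
      rw [Matrix.mulVec_diagonal, Pi.smul_apply, smul_eq_mul]
  have h5 : z ^ 3 = 1 := by
    apply Subtype.ext
    rw [Subgroup.coe_pow, hzc, Subgroup.coe_one]
    apply ext_act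
    intro v
    rw [h4, hcn, one_smul, act_one]
  have h6 : orderOf z ∣ 3 := orderOf_dvd_of_pow_eq_one h5
  rw [hz] at h6
  revert h6
  decide

theorem exists_psi (hF : Fintype.card F = q ^ 2) (hq : Odd q) {M : Ideal AlgInt} (hM : IsPModular 2 M) :
    ∃ χ : IrrCharacter (PSU 3 F q), (∃ d : ℕ, (χ : PSU 3 F q → ℂ) 1 = d ∧ d + q = q ^ 2) ∧
      (∀ (α : MulAut (PSU 3 F q)) (x : PSU 3 F q), (χ : PSU 3 F q → ℂ) (α x) = (χ : PSU 3 F q → ℂ) x) ∧
      χ ∈ principalBlock M (PSU 3 F q) := by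
  classical
  have hq2 : q ≠ 2 := by rintro rfl; exact absurd hq (by decide)
  obtain ⟨χ, ⟨d, hd, hdq⟩, hinv, hB⟩ := exists_chi hF hq hq2
  have : Fact (Nat.Prime 2) := ⟨Nat.prime_two⟩
  have := Fintype.ofFinite (SU 3 F q)
  have hker : ∀ z ∈ Subgroup.center (SU 3 F q), (χ : SU 3 F q → ℂ) z = (χ : SU 3 F q → ℂ) 1 := fun z hz =>
    Cfsg.Agent.Blocks.PrincipalKernel.principalBlock_apply_eq hM (not_two_dvd_center hF) (hB M hM) hz
  have : Fintype (Subgroup.center (SU 3 F q)) := Fintype.ofFinite _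
  obtain ⟨χ', hχ'⟩ := Blocks.Deflate.exists_deflation (Subgroup.center (SU 3 F q)) χ χ.2 (by
    rw [Finset.sum_congr rfl fun (n : Subgroup.center (SU 3 F q)) _ => hker n n.2, Finset.sum_const, nsmul_eq_mul]
    refine mul_ne_zero ?_ (isIrr_apply_one_ne_zero χ.2)
    exact Nat.cast_ne_zero.2 (Finset.card_ne_zero.2 ⟨1, Finset.mem_univ _⟩))
  refine ⟨χ', ⟨d, ?_, hdq⟩, ?_, ?_⟩
  · rw [← hd, hχ']
    rfl
  · intro α x
    obtain ⟨A, ρ, rfl⟩ := Cfsg.Agent.ClassicalGeometry.PSUAutMain.exists_toAut hF le_rfl (fun h => hq2 h.2) α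
    obtain ⟨g, rfl⟩ := pr_surjective x
    have h1 := hinv A ρ g
    rw [hχ'] at h1
    exact h1
  · exact mem_of_infl hM _ le_rfl (not_two_dvd_center hF) hχ' (hB M hM)

end PSU

end Cfsg.Agent.H971.HT
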