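import Cfsg.Agent.H971.HT.U3Psu
import Cfsg.Agent.H112.HT.Glue
import Cfsg.Agent.H624.HT.RowOf
import Cfsg.Agent.S0886
import Cfsg.Agent.S2603

/-!
# S4933, box 2.U3.wr (helper971): the row of `PSU₃(q)`, `q = 3 mod 4`, at `p = 2`

* `row_of_inv` : `Row 2 S` from an `Aut(S)`-invariant character of the principal 2-block whose degree has 2-part 2 and
  `Out(S) → C`, `C` cyclic, with kernel of odd order;
* `psu3_wr` : the field of the dispatcher.
-/

set_option autoImplicit false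
set_option linter.unusedSectionVars false
set_option linter.unusedVariables false

open Subgroup

namespace Cfsg.Agent.H971.HT

open Cfsg Cfsg.Agent.H316.HT Cfsg.Agent.Characters.Core

universe v w

/-- the quotient of `N P` by `N` is cyclic -/
theorem cyclic_sup {A : Type v} [Group A] [Finite A] {p : ℕ} [hp : Fact p.Prime] (N K : Subgroup A) [N.Normal]
    [hKn : K.Normal] (hNK : N ≤ K) (hcyc : IsCyclic (A ⧸ K)) (hodd : ¬ p ∣ N.relIndex K) (P : Sylow p A) :
    IsCyclic (↥(N ⊔ (P : Subgroup A)) ⧸ N.subgroupOf (N ⊔ (P : Subgroup A))) := by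
  set H : Subgroup A := N ⊔ (P : Subgroup A) with hH
  let f : H →* A ⧸ K := (QuotientGroup.mk' K).comp H.subtype
  have hker : f.ker = N.subgroupOf H := by
    ext x
    have e1 : x ∈ f.ker ↔ (x : A) ∈ K := by
      rw [MonoidHom.mem_ker]
      exact QuotientGroup.eq_one_iff (x : A)
    rw [e1, Subgroup.mem_subgroupOf]
    constructor
    · intro hx
      have h1 : (x : A) ∈ N ⊔ (P : Subgroup A) := x.2
      obtain ⟨n, hn, y, hy, h2⟩ := Subgroup.mem_sup_of_normal_left.1 h1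
      have hyK : y ∈ K := by
        have h3 : y = n⁻¹ * x := by rw [← h2]; group
        rw [h3]
        exact K.mul_mem (K.inv_mem (hNK hn)) hx
      have hyN : (⟨y, hyK⟩ : K) ∈ N.subgroupOf K := by
        refine H112.HT.mem_of_pelt (N.subgroupOf K) hodd ?_
        have h4 := P.2
        rw [IsPGroup.iff_orderOf] at h4
        obtain ⟨k, hk⟩ := h4 ⟨y, hy⟩
        refine ⟨k, ?_⟩
        rw [← hk, ← Subgroup.orderOf_coe, ← Subgroup.orderOf_coe]
      rw [Subgroup.mem_subgroupOf] at hyN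
      rw [← h2]
      exact N.mul_mem hn hyN
    · intro hx
      exact hNK hx
  have h1 : IsCyclic f.range := Subgroup.isCyclic f.range
  have h2 : IsCyclic (H ⧸ f.ker) := isCyclic_of_surjective (QuotientGroup.quotientKerEquivRange f).symm
    (QuotientGroup.quotientKerEquivRange f).symm.surjective
  exact isCyclic_of_surjective (QuotientGroup.quotientMulEquivOfEq hker) (QuotientGroup.quotientMulEquivOfEq hker).surjective

/-- **the row from an invariant character** -/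
theorem row_of_inv {S : Type v} [Group S] [Finite S] {C : Type w} [CommGroup C] [IsCyclic C] [Finite C]
    (g : Out S →* C) (hg : Odd (Nat.card g.ker))
    (h : ∀ M : Ideal AlgInt, IsPModular 2 M → ∃ χ : IrrCharacter S, χ ∈ principalBlock M S ∧
      vd 2 (χ : S → ℂ) = 1 ∧ ∀ (α : MulAut S) (x : S), (χ : S → ℂ) (α x) = (χ : S → ℂ) x) : Row 2 S := by
  classical
  intro A _ _ N hN ⟨e⟩ hC M hM P a ha _
  have h2f : Fact (Nat.Prime 2) := ⟨Nat.prime_two⟩
  have := Fintype.ofFinite A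
  have := Fintype.ofFinite N
  obtain ⟨χ, hχ, hv, hinv⟩ := h M hM
  have hg2 : ¬ 2 ∣ Nat.card g.ker := by
    rw [← even_iff_two_dvd, Nat.not_even_iff_odd]
    exact hg
  obtain ⟨K, hK, hNK, hcyc, hidx, hodd⟩ := H112.HT.exists_K N e (p := 2) hC g hg2
  have hcyc' := cyclic_sup N K hNK hcyc hodd P
  set H : Subgroup A := N ⊔ (P : Subgroup A) with hH
  have hNH : N ≤ H := le_sup_left
  let ψ : IrrCharacter N := H649.irrMap e.symm χ
  have hψ : ψ ∈ principalBlock M N := by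
    rw [← H649.blkMap_principalBlock e.symm]
    exact H649.irrMap_mem_blkMap.2 hχ
  have hψv : ∀ n : N, (ψ : N → ℂ) n = (χ : S → ℂ) (e n) := fun n => rfl
  let e1 : N.subgroupOf H ≃* N := Subgroup.subgroupOfEquivOfLe hNH
  have hirr : IsIrrCharacter (N.subgroupOf H) (fun t => (ψ : N → ℂ) (e1 t)) := (H649.irrMap e1.symm ψ).2
  obtain ⟨ξ, hξ, hξv⟩ := S0886.result (N.subgroupOf H) hcyc' _ hirr (fun x t => by
    show (χ : S → ℂ) (e (e1 _)) = (χ : S → ℂ) (e (e1 t))
    rw [← hinv (H112.HT.act N e (x : A)) (e (e1 t)), H112.HT.act_apply]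
    refine congrArg (fun n : N => (χ : S → ℂ) (e n)) (Subtype.ext ?_)
    show (x : A) * ((t : H) : A) * (x : A)⁻¹ = (x : A) * ((e.symm (e (e1 t)) : N) : A) * (x : A)⁻¹
    rw [MulEquiv.symm_apply_apply]
    rfl)
  have hval : ∀ n : N, ξ ⟨n, hNH n.2⟩ = (ψ : N → ℂ) n := by
    intro n
    have h1 := hξv (e1.symm n)
    rw [MulEquiv.apply_symm_apply] at h1
    exact h1
  have hd : charDegree ξ = charDegree (ψ : N → ℂ) := by
    unfold charDegree
    have h1 := hval 1
    have h2 : (⟨((1 : N) : A), hNH (1 : N).2⟩ : H) = 1 := rfl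
    rw [h2] at h1
    rw [h1]
  have hvψ : vd 2 (ψ : N → ℂ) = 1 := by
    rw [← hv, vd, vd]
    have h1 : charDegree (ψ : N → ℂ) = charDegree (χ : S → ℂ) := H649.charDegree_irrMap e.symm χ
    rw [h1]
  refine H624.HT.goodOn_of hM N P ψ hψ H hH ⟨ξ, hξ⟩ ?_ ?_ (Or.inl ?_) ?_
  · intro _
    have h1 : (fun n : N => (⟨ξ, hξ⟩ : IrrCharacter H).1 ⟨n, hH ▸ Subgroup.mem_sup_left n.2⟩) = (ψ : N → ℂ) :=
      funext hval
    rw [h1, classInner_irr_self ψ.2]
    exact one_ne_zero
  · show vd 2 ξ ≤ a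
    rw [vd, hd]
    exact hvψ.trans_le ha
  · exact Nat.dvd_of_factorization_pos (n := charDegree (ψ : N → ℂ)) (p := 2) (by
      have : (charDegree (ψ : N → ℂ)).factorization 2 = 1 := hvψ
      omega)
  · intro h0
    rw [h0, vd] at hvψ
    have h4 : charDegree (fun _ : N => (1 : ℂ)) = 1 := by
      simp [charDegree]
    rw [h4] at hvψ
    simp at hvψ

/-- the outer automorphisms of `PSU₃(q)`: a homomorphism to a cyclic group with kernel of odd order -/
theorem exists_phi {F : Type v} [Field F] [Fintype F] {q : ℕ} (hF : Fintype.card F = q ^ 2) (hq : q ≠ 2) :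
    ∃ (f : ℕ) (_ : NeZero f) (φ : Out (PSU 3 F q) →* Multiplicative (ZMod (2 * f))), Odd (Nat.card φ.ker) := by
  obtain ⟨p, hp⟩ := CharP.exists F
  have hpp : p.Prime := CharP.char_is_prime F p
  have : Fact p.Prime := ⟨hpp⟩
  obtain ⟨m, -, hm⟩ := FiniteField.card F p
  have h1 : q ∣ p ^ (m : ℕ) := by
    rw [← hm, hF]
    exact dvd_pow_self q (by norm_num)
  obtain ⟨f, -, hf⟩ := (Nat.dvd_prime_pow hpp).1 h1
  have hf0 : 1 ≤ f := by
    rcases Nat.eq_zero_or_pos f with h0 | h0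
    · rw [h0, pow_zero] at hf
      rw [hf, one_pow] at hF
      have := Fintype.one_lt_card (α := F)
      omega
    · exact h0
  obtain ⟨φ, -, -, hk⟩ := Cfsg.Agent.S2603.result (K := F) (n := 3) hf0 hf hF le_rfl (by rintro ⟨-, h⟩; exact hq h)
  refine ⟨f, ⟨by omega⟩, φ, ?_⟩
  rw [hk]
  exact Odd.of_dvd_nat (by decide : Odd 3) (Nat.gcd_dvd_left _ _)

/-- **2.U3.wr**: the row at `2` of `PSU₃(q)`, `q = 3 mod 4`. -/
theorem psu3_wr (F : Type) [Field F] [Fintype F] (q : ℕ) [IsSimpleGroup (PSU 3 F q)]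
    (hF : Fintype.card F = q ^ 2) (hq : q % 4 = 3) : Row 2 (PSU 3 F q) := by
  obtain ⟨f, hf, φ, hφ⟩ := exists_phi hF (by omega)
  have : NeZero (2 * f) := ⟨by have := hf.out; omega⟩
  refine row_of_inv φ hφ fun M hM => ?_
  obtain ⟨χ, ⟨d, hd, hdq⟩, hinv, hB⟩ := exists_psi hF (Nat.odd_iff.2 (by omega)) hM
  refine ⟨χ, hB, ?_, hinv⟩
  have hcd : charDegree (χ : PSU 3 F q → ℂ) = d := by
    unfold charDegree
    rw [hd, Complex.natCast_re, Nat.floor_natCast]
  rw [vd, hcd]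
  obtain ⟨k, rfl⟩ : ∃ k, q = 4 * k + 3 := ⟨q / 4, by omega⟩
  have h1 : d = 2 * ((4 * k + 3) * (2 * k + 1)) := by nlinarith
  have h2 : ¬ 2 ∣ (4 * k + 3) * (2 * k + 1) := by
    rw [← even_iff_two_dvd, Nat.not_even_iff_odd]
    exact Odd.mul ⟨2 * k + 1, by ring⟩ ⟨k, rfl⟩
  have h3 : (4 * k + 3) * (2 * k + 1) ≠ 0 := fun h => h2 (h ▸ dvd_zero 2)
  rw [h1, Nat.factorization_mul (by norm_num) h3, Finsupp.add_apply, Nat.factorization_eq_zero_of_not_dvd h2,
    Nat.Prime.factorization_self Nat.prime_two]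

end Cfsg.Agent.H971.HT
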